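import Mathlib
import Cfsg.Agent.Lib.Helper23.OHyp.Defs

set_option autoImplicit false

/-!
OHYP (S5992) package [PERP]: the orthogonal complement of an invariant nondegenerate subspace
inside an invariant nondegenerate subspace.
-/

namespace Cfsg.Agent.Lib.Helper87.OHyp

open Matrix
open Cfsg.Agent.Lib.Helper23.OHyp

universe u

theorem pkgPerp : PkgPerp.{u} := by
  intro F _ ι _ _ Q hQ x hisom hdet W D hDW hWinv hDinv hWnd hDnd
  have hB := hQ.polar_bilinear
  have hsymm : ∀ u v, QuadraticMap.polar Q u v = QuadraticMap.polar Q v u :=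
    fun u v => QuadraticMap.polar_comm Q u v
  have hBx : ∀ u v, QuadraticMap.polar Q (x *ᵥ u) (x *ᵥ v) = QuadraticMap.polar Q u v := by
    intro u v
    unfold QuadraticMap.polar
    rw [← Matrix.mulVec_add, hisom, hisom, hisom]
  have hsubr : ∀ v a b, QuadraticMap.polar Q v (a - b) =
      QuadraticMap.polar Q v a - QuadraticMap.polar Q v b := by
    intro v a b
    rw [sub_eq_add_neg, ← neg_one_smul F b, hB.add_right, hB.smul_right]
    ring
  have hsubl : ∀ v a b, QuadraticMap.polar Q (a - b) v =
      QuadraticMap.polar Q a v - QuadraticMap.polar Q b v := by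
    intro v a b
    rw [hsymm, hsubr, hsymm v a, hsymm v b]
  have hxinj : ∀ a b : ι → F, x *ᵥ a = x *ᵥ b → a = b := by
    intro a b hab
    have h1 := congrArg (fun v => x⁻¹ *ᵥ v) hab
    simp only [Matrix.mulVec_mulVec, Matrix.nonsing_inv_mul x hdet, Matrix.one_mulVec] at h1
    exact h1
  have hDinv' : ∀ d ∈ D, x *ᵥ d ∈ D := by
    intro d hd
    have h1 : Matrix.toLin' x d ∈ D := hDinv (Submodule.mem_map.2 ⟨d, hd, rfl⟩)
    rwa [Matrix.toLin'_apply] at h1
  have hWinv' : ∀ d ∈ W, x *ᵥ d ∈ W := by
    intro d hd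
    have h1 : Matrix.toLin' x d ∈ W := hWinv (Submodule.mem_map.2 ⟨d, hd, rfl⟩)
    rwa [Matrix.toLin'_apply] at h1
  have hDsurj : ∀ d ∈ D, ∃ d' ∈ D, x *ᵥ d' = d := by
    let f : D →ₗ[F] D :=
      { toFun := fun d => ⟨x *ᵥ d.1, hDinv' d.1 d.2⟩
        map_add' := by
          intro a b
          apply Subtype.ext
          simp [Matrix.mulVec_add]
        map_smul' := by
          intro c a
          apply Subtype.ext
          simp [Matrix.mulVec_smul] }
    have hf : Function.Injective f := by
      intro a b hab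
      apply Subtype.ext
      apply hxinj
      exact congrArg Subtype.val hab
    have hfs : Function.Surjective f := LinearMap.surjective_of_injective hf
    intro d hd
    obtain ⟨d', hd'⟩ := hfs ⟨d, hd⟩
    exact ⟨d'.1, d'.2, congrArg Subtype.val hd'⟩
  let P : Submodule F (ι → F) :=
    { carrier := {v | ∀ d ∈ D, QuadraticMap.polar Q d v = 0}
      add_mem' := by
        intro a b ha hb d hd
        rw [hB.add_right, ha d hd, hb d hd, add_zero]
      zero_mem' := by
        intro d hd
        have h1 := hB.smul_right 0 d 0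
        rw [zero_smul, zero_mul] at h1
        exact h1
      smul_mem' := by
        intro c a ha d hd
        rw [hB.smul_right, ha d hd, mul_zero] }
  have hP : ∀ v, v ∈ P ↔ ∀ d ∈ D, QuadraticMap.polar Q d v = 0 := fun v => Iff.rfl
  have hdec : ∀ w : ι → F, ∃ d0 ∈ D, w - d0 ∈ P := by
    intro w
    let φ : D →ₗ[F] Module.Dual F D :=
      { toFun := fun d0 =>
          { toFun := fun d => QuadraticMap.polar Q d.1 d0.1
            map_add' := by
              intro a b
              exact hB.add_left _ _ _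
            map_smul' := by
              intro c a
              exact hB.smul_left _ _ _ }
        map_add' := by
          intro a b
          apply LinearMap.ext
          intro d
          exact hB.add_right _ _ _
        map_smul' := by
          intro c a
          apply LinearMap.ext
          intro d
          exact hB.smul_right _ _ _ }
    have hφinj : Function.Injective φ := by
      rw [← LinearMap.ker_eq_bot, LinearMap.ker_eq_bot']
      intro d0 hd0
      by_contra hne
      obtain ⟨⟨y, hy, hy'⟩, -⟩ := hDnd d0.1 d0.2 (fun h => hne (Subtype.ext h))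
      apply hy'
      exact LinearMap.congr_fun hd0 ⟨y, hy⟩
    have hφsurj : Function.Surjective φ :=
      (LinearMap.injective_iff_surjective_of_finrank_eq_finrank
        (Subspace.dual_finrank_eq).symm).1 hφinj
    let ψ : Module.Dual F D :=
      { toFun := fun d => QuadraticMap.polar Q d.1 w
        map_add' := by
          intro a b
          exact hB.add_left _ _ _
        map_smul' := by
          intro c a
          exact hB.smul_left _ _ _ }
    obtain ⟨d0, hd0⟩ := hφsurj ψ
    refine ⟨d0.1, d0.2, fun d hd => ?_⟩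
    have h1 : QuadraticMap.polar Q d d0.1 = QuadraticMap.polar Q d w :=
      LinearMap.congr_fun hd0 ⟨d, hd⟩
    rw [hsubr, h1, sub_self]
  refine ⟨W ⊓ P, inf_le_left, ?_, ?_, ?_, ?_, ?_⟩
  · -- invariance
    intro y hy
    obtain ⟨v, hv, rfl⟩ := Submodule.mem_map.1 hy
    rw [Matrix.toLin'_apply]
    refine ⟨hWinv' v hv.1, fun d hd => ?_⟩
    obtain ⟨d', hd', rfl⟩ := hDsurj d hd
    rw [hBx]
    exact hv.2 d' hd'
  · -- nondegenerate
    intro w' hw' hne
    obtain ⟨⟨y, hy, hy'⟩, -⟩ := hWnd w' hw'.1 hne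
    obtain ⟨d0, hd0, hd0P⟩ := hdec y
    have hmem : y - d0 ∈ W ⊓ P := ⟨W.sub_mem hy (hDW hd0), hd0P⟩
    have hval : QuadraticMap.polar Q (y - d0) w' ≠ 0 := by
      rw [hsubl, hw'.2 d0 hd0, sub_zero]
      exact hy'
    exact ⟨⟨y - d0, hmem, hval⟩, ⟨y - d0, hmem, by rw [hsymm]; exact hval⟩⟩
  · -- perp
    intro u hu v hv
    exact hv.2 u hu
  · -- sup
    apply le_antisymm (sup_le hDW inf_le_left)
    intro w hw
    obtain ⟨d0, hd0, hd0P⟩ := hdec w
    have h1 : d0 + (w - d0) ∈ D ⊔ (W ⊓ P) :=
      Submodule.add_mem_sup hd0 ⟨W.sub_mem hw (hDW hd0), hd0P⟩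
    rwa [add_sub_cancel] at h1
  · -- dimensions
    have hsup : D ⊔ (W ⊓ P) = W := by
      apply le_antisymm (sup_le hDW inf_le_left)
      intro w hw
      obtain ⟨d0, hd0, hd0P⟩ := hdec w
      have h1 : d0 + (w - d0) ∈ D ⊔ (W ⊓ P) :=
        Submodule.add_mem_sup hd0 ⟨W.sub_mem hw (hDW hd0), hd0P⟩
      rwa [add_sub_cancel] at h1
    have hinf : D ⊓ (W ⊓ P) = ⊥ := by
      rw [eq_bot_iff]
      intro v hv
      rw [Submodule.mem_bot]
      by_contra hne
      obtain ⟨⟨y, hy, hy'⟩, -⟩ := hDnd v hv.1 hne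
      exact hy' (hv.2.2 y hy)
    have h1 := Submodule.finrank_sup_add_finrank_inf_eq D (W ⊓ P)
    rw [hsup, hinf, finrank_bot] at h1
    omega

end Cfsg.Agent.Lib.Helper87.OHyp
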