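import Mathlib
import Cfsg.Agent.Lib.Helper23.OHyp.Defs

set_option autoImplicit false

/-!
OHYP (S5992) package [DIV]: an invariant nondegenerate subspace of the moved space has dimension
divisible by `c`, and its type is determined.
-/

namespace Cfsg.Agent.Lib.Helper87.OHyp

open Matrix
open Cfsg.Agent.Lib.Helper23.OHyp

universe u

theorem pkgDiv_of (hBlk : PkgBlk.{u}) (hPerp : PkgPerp.{u}) (hSum : PkgSum.{u}) : PkgDiv.{u} := by
  intro F _ _ ι _ _ Q r x hstd
  haveI : Fact r.Prime := ⟨hstd.prime⟩
  have hq0 : ((Fintype.card F : ℕ) : ZMod r) ≠ 0 := by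
    rw [Ne, ZMod.natCast_eq_zero_iff]
    exact hstd.ndvd
  have hipos : 0 < ordI (Fintype.card F) r := by
    unfold ordI
    rw [orderOf_pos_iff, isOfFinOrder_iff_pow_eq_one]
    exact ⟨r - 1, by have := hstd.prime.two_le; omega, ZMod.pow_card_sub_one_eq_one hq0⟩
  have hcdef : cc (Fintype.card F) r = if Even (ordI (Fintype.card F) r)
      then ordI (Fintype.card F) r else 2 * ordI (Fintype.card F) r := rfl
  generalize hi : ordI (Fintype.card F) r = i at hcdef hipos ⊢
  generalize hc : cc (Fintype.card F) r = c at hcdef ⊢
  have hceven : Even c := by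
    rw [hcdef]; split_ifs with h
    · exact h
    · exact even_two_mul i
  have hcpos : 0 < c := by
    rw [hcdef]; split_ifs <;> omega
  have hdet : IsUnit x.det := by
    apply IsUnit.of_pow_eq_one (n := r) _ hstd.prime.ne_zero
    rw [← Matrix.det_pow, hstd.pow, Matrix.det_one]
  have hQ0 : Q 0 = 0 := by
    have h1 := hstd.nondeg.smul 0 0
    rw [zero_smul] at h1
    rw [h1]; ring
  have key : ∀ n : ℕ, ∀ W : Submodule F (ι → F), Module.finrank F W = n → W ≤ movSp x →
      Inv x W → Nd Q W → c ∣ n ∧ (Plus Q W ↔ (Odd i ∨ Even (n / i))) := by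
    intro n
    induction n using Nat.strong_induction_on with
    | _ n ih =>
      intro W hn hWm hInv hNd
      by_cases hW : W = ⊥
      · subst hW
        rw [finrank_bot] at hn
        subst hn
        refine ⟨dvd_zero c, ?_⟩
        constructor
        · intro _; right; simp
        · intro _
          refine ⟨⊥, le_refl _, fun w hw => ?_, by simp⟩
          rw [Submodule.mem_bot] at hw
          rw [hw]; exact hQ0
      · obtain ⟨D, hDW, hDinv, hDnd, hDc, hDplus⟩ := hBlk F ι Q r x hstd W hWm hInv hNd hW
        obtain ⟨W', hW'W, hW'inv, hW'nd, hperp, hsup, hdim⟩ :=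
          hPerp F ι Q hstd.nondeg x hstd.isom hdet W D hDW hInv hDinv hNd hDnd
        rw [hc] at hDc
        rw [hi] at hDplus
        have hlt : Module.finrank F W' < n := by omega
        obtain ⟨hdvd', hplus'⟩ := ih _ hlt W' rfl (le_trans hW'W hWm) hW'inv hW'nd
        obtain ⟨hnd, hfr, hpl⟩ := hSum F ι Q hstd.nondeg hstd.two D W' hDnd hW'nd hperp
        obtain ⟨t, ht⟩ := hdvd'
        have hpl' := hpl (by rw [hDc]; exact hceven) (by rw [ht]; exact hceven.mul_right t)
        rw [hsup] at hpl'
        have hWdim : n = c * (t + 1) := by rw [← hn, hdim, hDc, ht]; ring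
        refine ⟨⟨t + 1, hWdim⟩, ?_⟩
        by_cases hio : Odd i
        · constructor
          · intro _; left; exact hio
          · intro _
            exact hpl'.2 ⟨fun _ => hplus'.2 (Or.inl hio), fun _ => hDplus.2 hio⟩
        · have hie : Even i := Nat.not_odd_iff_even.1 hio
          have hci : c = i := by rw [hcdef, if_pos hie]
          have h1 : ¬ Plus Q D := fun h => hio (hDplus.1 h)
          have h2 : Plus Q W' ↔ Even t := by
            rw [hplus', ht, hci, Nat.mul_div_cancel_left t hipos]
            constructor
            · rintro (h | h)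
              · exact absurd h hio
              · exact h
            · intro h; right; exact h
          rw [hWdim, hci, Nat.mul_div_cancel_left (t + 1) hipos, hpl', h2, Nat.even_add_one]
          constructor
          · intro h; right; intro het; exact h1 (h.2 het)
          · rintro (h | h)
            · exact absurd h hio
            · exact ⟨fun hD => absurd hD h1, fun het => absurd het h⟩
  intro W hWm hInv hNd
  exact key _ W rfl hWm hInv hNd

end Cfsg.Agent.Lib.Helper87.OHyp
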